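import Cfsg.Agent.Lib.Helper99.CHO.Defs2

/-!
# CHO (S1083), package [ST-B2-0]

The first reduction step for `x₀² + x₁y₁ + x₂y₂` over an arbitrary field: an isometry `g` becomes
monomial on the first hyperbolic pair after multiplication by a product of root elements.
Everything is done in coordinates (`mk5`): the pair `(g e₁, g f₁)` is moved to `(a e₁, a⁻¹ f₁)`
by at most eight root elements.
-/

set_option autoImplicit false
set_option linter.unusedSimpArgs false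
set_option linter.unusedVariables false
set_option linter.unusedSectionVars false
open scoped MatrixGroups
open Matrix

namespace Cfsg.Agent.Lib.Helper79.CHO
open Cfsg.Agent.Lib.Helper99.CHO

universe u
variable {K : Type u} [Field K]

/-- a vector of `K^5` from its coordinates on `e0, e1, e2, f1, f2` -/
def mk5 (a b c d e : K) : Unit ⊕ (Fin 2 ⊕ Fin 2) → K :=
  Sum.elim (fun _ => a) (Sum.elim ![b, c] ![d, e])

theorem mk5_eta (v : Unit ⊕ (Fin 2 ⊕ Fin 2) → K) :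
    v = mk5 (v (Sum.inl ())) (v (Sum.inr (Sum.inl 0))) (v (Sum.inr (Sum.inl 1)))
      (v (Sum.inr (Sum.inr 0))) (v (Sum.inr (Sum.inr 1))) := by
  funext i
  rcases i with _ | i | i
  · rfl
  · fin_cases i <;> rfl
  · fin_cases i <;> rfl

theorem actB0 (t x0 x1 x2 y1 y2 : K) :
    EB2mat K 0 t *ᵥ mk5 x0 x1 x2 y1 y2 = mk5 x0 x1 x2 (y1 - t * x2) (y2 + t * x1) := by
  funext i
  rcases i with _ | i | i
  · simp [EB2mat, NB2, MB2, tab3, nListB2, mListB2, ix5, Matrix.mulVec, dotProduct,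
      Fintype.sum_sum_type, Matrix.add_apply, Matrix.smul_apply, Matrix.one_apply, mk5]
    try ring
  · fin_cases i
    · simp [EB2mat, NB2, MB2, tab3, nListB2, mListB2, ix5, Matrix.mulVec, dotProduct,
      Fintype.sum_sum_type, Matrix.add_apply, Matrix.smul_apply, Matrix.one_apply, mk5]
      try ring
    · simp [EB2mat, NB2, MB2, tab3, nListB2, mListB2, ix5, Matrix.mulVec, dotProduct,
      Fintype.sum_sum_type, Matrix.add_apply, Matrix.smul_apply, Matrix.one_apply, mk5]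
      try ring
  · fin_cases i
    · simp [EB2mat, NB2, MB2, tab3, nListB2, mListB2, ix5, Matrix.mulVec, dotProduct,
      Fintype.sum_sum_type, Matrix.add_apply, Matrix.smul_apply, Matrix.one_apply, mk5]
      try ring
    · simp [EB2mat, NB2, MB2, tab3, nListB2, mListB2, ix5, Matrix.mulVec, dotProduct,
      Fintype.sum_sum_type, Matrix.add_apply, Matrix.smul_apply, Matrix.one_apply, mk5]
      try ring

theorem actB3 (t x0 x1 x2 y1 y2 : K) :
    EB2mat K 3 t *ᵥ mk5 x0 x1 x2 y1 y2 = mk5 x0 x1 (x2 + t * x1) (y1 - t * y2) y2 := by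
  funext i
  rcases i with _ | i | i
  · simp [EB2mat, NB2, MB2, tab3, nListB2, mListB2, ix5, Matrix.mulVec, dotProduct,
      Fintype.sum_sum_type, Matrix.add_apply, Matrix.smul_apply, Matrix.one_apply, mk5]
    try ring
  · fin_cases i
    · simp [EB2mat, NB2, MB2, tab3, nListB2, mListB2, ix5, Matrix.mulVec, dotProduct,
      Fintype.sum_sum_type, Matrix.add_apply, Matrix.smul_apply, Matrix.one_apply, mk5]
      try ring
    · simp [EB2mat, NB2, MB2, tab3, nListB2, mListB2, ix5, Matrix.mulVec, dotProduct,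
      Fintype.sum_sum_type, Matrix.add_apply, Matrix.smul_apply, Matrix.one_apply, mk5]
      try ring
  · fin_cases i
    · simp [EB2mat, NB2, MB2, tab3, nListB2, mListB2, ix5, Matrix.mulVec, dotProduct,
      Fintype.sum_sum_type, Matrix.add_apply, Matrix.smul_apply, Matrix.one_apply, mk5]
      try ring
    · simp [EB2mat, NB2, MB2, tab3, nListB2, mListB2, ix5, Matrix.mulVec, dotProduct,
      Fintype.sum_sum_type, Matrix.add_apply, Matrix.smul_apply, Matrix.one_apply, mk5]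
      try ring

theorem actB4 (t x0 x1 x2 y1 y2 : K) :
    EB2mat K 4 t *ᵥ mk5 x0 x1 x2 y1 y2 = mk5 x0 (x1 + t * x2) x2 y1 (y2 - t * y1) := by
  funext i
  rcases i with _ | i | i
  · simp [EB2mat, NB2, MB2, tab3, nListB2, mListB2, ix5, Matrix.mulVec, dotProduct,
      Fintype.sum_sum_type, Matrix.add_apply, Matrix.smul_apply, Matrix.one_apply, mk5]
    try ring
  · fin_cases i
    · simp [EB2mat, NB2, MB2, tab3, nListB2, mListB2, ix5, Matrix.mulVec, dotProduct,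
      Fintype.sum_sum_type, Matrix.add_apply, Matrix.smul_apply, Matrix.one_apply, mk5]
      try ring
    · simp [EB2mat, NB2, MB2, tab3, nListB2, mListB2, ix5, Matrix.mulVec, dotProduct,
      Fintype.sum_sum_type, Matrix.add_apply, Matrix.smul_apply, Matrix.one_apply, mk5]
      try ring
  · fin_cases i
    · simp [EB2mat, NB2, MB2, tab3, nListB2, mListB2, ix5, Matrix.mulVec, dotProduct,
      Fintype.sum_sum_type, Matrix.add_apply, Matrix.smul_apply, Matrix.one_apply, mk5]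
      try ring
    · simp [EB2mat, NB2, MB2, tab3, nListB2, mListB2, ix5, Matrix.mulVec, dotProduct,
      Fintype.sum_sum_type, Matrix.add_apply, Matrix.smul_apply, Matrix.one_apply, mk5]
      try ring

theorem actB5 (t x0 x1 x2 y1 y2 : K) :
    EB2mat K 5 t *ᵥ mk5 x0 x1 x2 y1 y2 = mk5 (x0 - t * y2) x1 (x2 + 2 * t * x0 - t ^ 2 * y2) y1 y2 := by
  funext i
  rcases i with _ | i | i
  · simp [EB2mat, NB2, MB2, tab3, nListB2, mListB2, ix5, Matrix.mulVec, dotProduct,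
      Fintype.sum_sum_type, Matrix.add_apply, Matrix.smul_apply, Matrix.one_apply, mk5]
    try ring
  · fin_cases i
    · simp [EB2mat, NB2, MB2, tab3, nListB2, mListB2, ix5, Matrix.mulVec, dotProduct,
      Fintype.sum_sum_type, Matrix.add_apply, Matrix.smul_apply, Matrix.one_apply, mk5]
      try ring
    · simp [EB2mat, NB2, MB2, tab3, nListB2, mListB2, ix5, Matrix.mulVec, dotProduct,
      Fintype.sum_sum_type, Matrix.add_apply, Matrix.smul_apply, Matrix.one_apply, mk5]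
      try ring
  · fin_cases i
    · simp [EB2mat, NB2, MB2, tab3, nListB2, mListB2, ix5, Matrix.mulVec, dotProduct,
      Fintype.sum_sum_type, Matrix.add_apply, Matrix.smul_apply, Matrix.one_apply, mk5]
      try ring
    · simp [EB2mat, NB2, MB2, tab3, nListB2, mListB2, ix5, Matrix.mulVec, dotProduct,
      Fintype.sum_sum_type, Matrix.add_apply, Matrix.smul_apply, Matrix.one_apply, mk5]
      try ring

theorem actB6 (t x0 x1 x2 y1 y2 : K) :
    EB2mat K 6 t *ᵥ mk5 x0 x1 x2 y1 y2 = mk5 (x0 - t * y1) (x1 + 2 * t * x0 - t ^ 2 * y1) x2 y1 y2 := by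
  funext i
  rcases i with _ | i | i
  · simp [EB2mat, NB2, MB2, tab3, nListB2, mListB2, ix5, Matrix.mulVec, dotProduct,
      Fintype.sum_sum_type, Matrix.add_apply, Matrix.smul_apply, Matrix.one_apply, mk5]
    try ring
  · fin_cases i
    · simp [EB2mat, NB2, MB2, tab3, nListB2, mListB2, ix5, Matrix.mulVec, dotProduct,
      Fintype.sum_sum_type, Matrix.add_apply, Matrix.smul_apply, Matrix.one_apply, mk5]
      try ring
    · simp [EB2mat, NB2, MB2, tab3, nListB2, mListB2, ix5, Matrix.mulVec, dotProduct,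
      Fintype.sum_sum_type, Matrix.add_apply, Matrix.smul_apply, Matrix.one_apply, mk5]
      try ring
  · fin_cases i
    · simp [EB2mat, NB2, MB2, tab3, nListB2, mListB2, ix5, Matrix.mulVec, dotProduct,
      Fintype.sum_sum_type, Matrix.add_apply, Matrix.smul_apply, Matrix.one_apply, mk5]
      try ring
    · simp [EB2mat, NB2, MB2, tab3, nListB2, mListB2, ix5, Matrix.mulVec, dotProduct,
      Fintype.sum_sum_type, Matrix.add_apply, Matrix.smul_apply, Matrix.one_apply, mk5]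
      try ring

theorem actB7 (t x0 x1 x2 y1 y2 : K) :
    EB2mat K 7 t *ᵥ mk5 x0 x1 x2 y1 y2 = mk5 x0 (x1 + t * y2) (x2 - t * y1) y1 y2 := by
  funext i
  rcases i with _ | i | i
  · simp [EB2mat, NB2, MB2, tab3, nListB2, mListB2, ix5, Matrix.mulVec, dotProduct,
      Fintype.sum_sum_type, Matrix.add_apply, Matrix.smul_apply, Matrix.one_apply, mk5]
    try ring
  · fin_cases i
    · simp [EB2mat, NB2, MB2, tab3, nListB2, mListB2, ix5, Matrix.mulVec, dotProduct,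
      Fintype.sum_sum_type, Matrix.add_apply, Matrix.smul_apply, Matrix.one_apply, mk5]
      try ring
    · simp [EB2mat, NB2, MB2, tab3, nListB2, mListB2, ix5, Matrix.mulVec, dotProduct,
      Fintype.sum_sum_type, Matrix.add_apply, Matrix.smul_apply, Matrix.one_apply, mk5]
      try ring
  · fin_cases i
    · simp [EB2mat, NB2, MB2, tab3, nListB2, mListB2, ix5, Matrix.mulVec, dotProduct,
      Fintype.sum_sum_type, Matrix.add_apply, Matrix.smul_apply, Matrix.one_apply, mk5]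
      try ring
    · simp [EB2mat, NB2, MB2, tab3, nListB2, mListB2, ix5, Matrix.mulVec, dotProduct,
      Fintype.sum_sum_type, Matrix.add_apply, Matrix.smul_apply, Matrix.one_apply, mk5]
      try ring

/-- the goal: some element of `R` maps the pair to `(a e₁, a⁻¹ f₁)` -/
def GoalB (K : Type u) [Field K] (v w : Unit ⊕ (Fin 2 ⊕ Fin 2) → K) : Prop :=
  ∃ ρ ∈ RB2 K, ∃ a : K, a ≠ 0 ∧
    (ρ : Matrix (Unit ⊕ (Fin 2 ⊕ Fin 2)) (Unit ⊕ (Fin 2 ⊕ Fin 2)) K) *ᵥ v = a • eB K 0 ∧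
    (ρ : Matrix (Unit ⊕ (Fin 2 ⊕ Fin 2)) (Unit ⊕ (Fin 2 ⊕ Fin 2)) K) *ᵥ w = a⁻¹ • fB K 0

theorem goalB_of_step (hU : PkgUnitB2.{u}) (r : ℕ) (hr : r < 8) (t : K)
    (v w : Unit ⊕ (Fin 2 ⊕ Fin 2) → K)
    (h : GoalB K (EB2mat K r t *ᵥ v) (EB2mat K r t *ᵥ w)) : GoalB K v w := by
  obtain ⟨ρ, hρ, a, ha, h1, h2⟩ := h
  have hr' : r < Cfsg.Lie.chevB2.nroots := hr
  have hcoe : ((EB2 K ⟨r, hr'⟩ t : GL (Unit ⊕ (Fin 2 ⊕ Fin 2)) K) :
      Matrix (Unit ⊕ (Fin 2 ⊕ Fin 2)) (Unit ⊕ (Fin 2 ⊕ Fin 2)) K) = EB2mat K r t := by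
    unfold EB2
    rw [dif_pos (hU K r t hr)]
    exact IsUnit.unit_spec _
  have hmem : EB2 K ⟨r, hr'⟩ t ∈ RB2 K := Subgroup.subset_closure ⟨(⟨r, hr'⟩, t), rfl⟩
  refine ⟨ρ * EB2 K ⟨r, hr'⟩ t, Subgroup.mul_mem _ hρ hmem, a, ha, ?_, ?_⟩
  · rw [Units.val_mul, hcoe, ← Matrix.mulVec_mulVec]; exact h1
  · rw [Units.val_mul, hcoe, ← Matrix.mulVec_mulVec]; exact h2

theorem goalB_fin (x0 x1 x2 y1 y2 z0 z1 z2 u1 u2 : K) (hx0 : x0 = 0) (hx2 : x2 = 0)
    (hy1 : y1 = 0) (hy2 : y2 = 0) (hz0 : z0 = 0) (hz2 : z2 = 0) (hu2 : u2 = 0)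
    (hw : z0 ^ 2 + z1 * u1 + z2 * u2 = 0)
    (hB : 2 * x0 * z0 + x1 * u1 + y1 * z1 + x2 * u2 + y2 * z2 = 1) :
    GoalB K (mk5 x0 x1 x2 y1 y2) (mk5 z0 z1 z2 u1 u2) := by
  subst hx0 hx2 hy1 hy2 hz0 hz2 hu2
  have h1 : x1 * u1 = 1 := by linear_combination hB
  have hx1 : x1 ≠ 0 := left_ne_zero_of_mul_eq_one h1
  have hu1 : u1 ≠ 0 := right_ne_zero_of_mul_eq_one h1
  have hz1 : z1 = 0 := by
    have : z1 * u1 = 0 := by linear_combination hw
    rcases mul_eq_zero.mp this with h | h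
    · exact h
    · exact absurd h hu1
  subst hz1
  have hu : u1 = x1⁻¹ := eq_inv_of_mul_eq_one_right h1
  refine ⟨1, Subgroup.one_mem _, x1, hx1, ?_, ?_⟩
  · rw [Units.val_one, Matrix.one_mulVec]
    funext i
    rcases i with _ | i | i
    · simp [mk5, eB]
    · fin_cases i <;> simp [mk5, eB]
    · fin_cases i <;> simp [mk5, eB]
  · rw [Units.val_one, Matrix.one_mulVec, hu]
    funext i
    rcases i with _ | i | i
    · simp [mk5, fB]
    · fin_cases i <;> simp [mk5, fB]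
    · fin_cases i <;> simp [mk5, fB]

theorem goalB_4c (hU : PkgUnitB2.{u}) (x0 x1 x2 y1 y2 z0 z1 z2 u1 u2 : K) (hx0 : x0 = 0)
    (hx2 : x2 = 0) (hy1 : y1 = 0) (hy2 : y2 = 0) (hz0 : z0 = 0) (hu2 : u2 = 0)
    (hw : z0 ^ 2 + z1 * u1 + z2 * u2 = 0)
    (hB : 2 * x0 * z0 + x1 * u1 + y1 * z1 + x2 * u2 + y2 * z2 = 1) :
    GoalB K (mk5 x0 x1 x2 y1 y2) (mk5 z0 z1 z2 u1 u2) := by
  have h1 : x1 * u1 = 1 := by
    linear_combination hB - 2 * z0 * hx0 - z1 * hy1 - u2 * hx2 - z2 * hy2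
  have hu1 : u1 ≠ 0 := right_ne_zero_of_mul_eq_one h1
  obtain ⟨t, ht⟩ : ∃ t : K, t * u1 = z2 := ⟨z2 / u1, div_mul_cancel₀ _ hu1⟩
  apply goalB_of_step hU 7 (by norm_num) t
  rw [actB7, actB7]
  exact goalB_fin _ _ _ _ _ _ _ _ _ _ hx0 (by rw [hx2, hy1]; ring) hy1 hy2 hz0
    (by linear_combination -ht) hu2 (by linear_combination hw) (by linear_combination hB)

theorem goalB_4b (hU : PkgUnitB2.{u}) (x0 x1 x2 y1 y2 z0 z1 z2 u1 u2 : K) (hx0 : x0 = 0)
    (hx2 : x2 = 0) (hy1 : y1 = 0) (hy2 : y2 = 0) (hz0 : z0 = 0)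
    (hw : z0 ^ 2 + z1 * u1 + z2 * u2 = 0)
    (hB : 2 * x0 * z0 + x1 * u1 + y1 * z1 + x2 * u2 + y2 * z2 = 1) :
    GoalB K (mk5 x0 x1 x2 y1 y2) (mk5 z0 z1 z2 u1 u2) := by
  have h1 : x1 * u1 = 1 := by
    linear_combination hB - 2 * z0 * hx0 - z1 * hy1 - u2 * hx2 - z2 * hy2
  have hu1 : u1 ≠ 0 := right_ne_zero_of_mul_eq_one h1
  obtain ⟨s, hs⟩ : ∃ s : K, s * u1 = u2 := ⟨u2 / u1, div_mul_cancel₀ _ hu1⟩
  apply goalB_of_step hU 4 (by norm_num) s
  rw [actB4, actB4]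
  exact goalB_4c hU _ _ _ _ _ _ _ _ _ _ hx0 hx2 hy1 (by rw [hy2, hy1]; ring) hz0
    (by linear_combination -hs) (by linear_combination hw) (by linear_combination hB)

theorem goalB_4a (hU : PkgUnitB2.{u}) (x0 x1 x2 y1 y2 z0 z1 z2 u1 u2 : K) (hx0 : x0 = 0)
    (hx2 : x2 = 0) (hy1 : y1 = 0) (hy2 : y2 = 0)
    (hw : z0 ^ 2 + z1 * u1 + z2 * u2 = 0)
    (hB : 2 * x0 * z0 + x1 * u1 + y1 * z1 + x2 * u2 + y2 * z2 = 1) :
    GoalB K (mk5 x0 x1 x2 y1 y2) (mk5 z0 z1 z2 u1 u2) := by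
  have h1 : x1 * u1 = 1 := by
    linear_combination hB - 2 * z0 * hx0 - z1 * hy1 - u2 * hx2 - z2 * hy2
  have hu1 : u1 ≠ 0 := right_ne_zero_of_mul_eq_one h1
  obtain ⟨t, ht⟩ : ∃ t : K, t * u1 = z0 := ⟨z0 / u1, div_mul_cancel₀ _ hu1⟩
  apply goalB_of_step hU 6 (by norm_num) t
  rw [actB6, actB6]
  exact goalB_4b hU _ _ _ _ _ _ _ _ _ _ (by rw [hx0, hy1]; ring) hx2 hy1 hy2
    (by linear_combination -ht) (by linear_combination hw) (by linear_combination hB)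

theorem goalB_3b (hU : PkgUnitB2.{u}) (x0 x1 x2 y1 y2 z0 z1 z2 u1 u2 : K) (hx0 : x0 = 0)
    (hx2 : x2 = 0) (hx1 : x1 ≠ 0)
    (hv : x0 ^ 2 + x1 * y1 + x2 * y2 = 0)
    (hw : z0 ^ 2 + z1 * u1 + z2 * u2 = 0)
    (hB : 2 * x0 * z0 + x1 * u1 + y1 * z1 + x2 * u2 + y2 * z2 = 1) :
    GoalB K (mk5 x0 x1 x2 y1 y2) (mk5 z0 z1 z2 u1 u2) := by
  have hy1 : y1 = 0 := by
    have : x1 * y1 = 0 := by linear_combination hv - x0 * hx0 - y2 * hx2
    rcases mul_eq_zero.mp this with h | h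
    · exact absurd h hx1
    · exact h
  obtain ⟨s, hs⟩ : ∃ s : K, s * x1 = -y2 := ⟨-y2 / x1, div_mul_cancel₀ _ hx1⟩
  apply goalB_of_step hU 0 (by norm_num) s
  rw [actB0, actB0]
  exact goalB_4a hU _ _ _ _ _ _ _ _ _ _ hx0 hx2 (by rw [hy1, hx2]; ring)
    (by linear_combination hs) (by linear_combination hw) (by linear_combination hB)

theorem goalB_3a (hU : PkgUnitB2.{u}) (x0 x1 x2 y1 y2 z0 z1 z2 u1 u2 : K) (hx0 : x0 = 0)
    (hx1 : x1 ≠ 0)
    (hv : x0 ^ 2 + x1 * y1 + x2 * y2 = 0)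
    (hw : z0 ^ 2 + z1 * u1 + z2 * u2 = 0)
    (hB : 2 * x0 * z0 + x1 * u1 + y1 * z1 + x2 * u2 + y2 * z2 = 1) :
    GoalB K (mk5 x0 x1 x2 y1 y2) (mk5 z0 z1 z2 u1 u2) := by
  obtain ⟨t, ht⟩ : ∃ t : K, t * x1 = -x2 := ⟨-x2 / x1, div_mul_cancel₀ _ hx1⟩
  apply goalB_of_step hU 3 (by norm_num) t
  rw [actB3, actB3]
  exact goalB_3b hU _ _ _ _ _ _ _ _ _ _ hx0 (by linear_combination ht) hx1
    (by linear_combination hv) (by linear_combination hw) (by linear_combination hB)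

theorem goalB_2 (hU : PkgUnitB2.{u}) (x0 x1 x2 y1 y2 z0 z1 z2 u1 u2 : K) (hx0 : x0 = 0)
    (hv : x0 ^ 2 + x1 * y1 + x2 * y2 = 0)
    (hw : z0 ^ 2 + z1 * u1 + z2 * u2 = 0)
    (hB : 2 * x0 * z0 + x1 * u1 + y1 * z1 + x2 * u2 + y2 * z2 = 1) :
    GoalB K (mk5 x0 x1 x2 y1 y2) (mk5 z0 z1 z2 u1 u2) := by
  by_cases hx1 : x1 = 0
  · by_cases hx2 : x2 = 0
    · by_cases hy2 : y2 = 0
      · have h1 : y1 * z1 = 1 := by
          linear_combination hB - 2 * z0 * hx0 - u1 * hx1 - u2 * hx2 - z2 * hy2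
        have hy1 : y1 ≠ 0 := left_ne_zero_of_mul_eq_one h1
        apply goalB_of_step hU 4 (by norm_num) 1
        rw [actB4, actB4]
        apply goalB_of_step hU 7 (by norm_num) 1
        rw [actB7, actB7]
        have hne : x1 + 1 * x2 + 1 * (y2 - 1 * y1) ≠ 0 := by
          have : x1 + 1 * x2 + 1 * (y2 - 1 * y1) = -y1 := by rw [hx1, hx2, hy2]; ring
          rw [this]
          exact neg_ne_zero.mpr hy1
        exact goalB_3a hU _ _ _ _ _ _ _ _ _ _ hx0 hne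
          (by linear_combination hv) (by linear_combination hw) (by linear_combination hB)
      · apply goalB_of_step hU 7 (by norm_num) 1
        rw [actB7, actB7]
        have hne : x1 + 1 * y2 ≠ 0 := by
          have : x1 + 1 * y2 = y2 := by rw [hx1]; ring
          rw [this]
          exact hy2
        exact goalB_3a hU _ _ _ _ _ _ _ _ _ _ hx0 hne
          (by linear_combination hv) (by linear_combination hw) (by linear_combination hB)
    · apply goalB_of_step hU 4 (by norm_num) 1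
      rw [actB4, actB4]
      have hne : x1 + 1 * x2 ≠ 0 := by
        have : x1 + 1 * x2 = x2 := by rw [hx1]; ring
        rw [this]
        exact hx2
      exact goalB_3a hU _ _ _ _ _ _ _ _ _ _ hx0 hne
        (by linear_combination hv) (by linear_combination hw) (by linear_combination hB)
  · exact goalB_3a hU _ _ _ _ _ _ _ _ _ _ hx0 hx1 hv hw hB

theorem goalB_1 (hU : PkgUnitB2.{u}) (x0 x1 x2 y1 y2 z0 z1 z2 u1 u2 : K)
    (hv : x0 ^ 2 + x1 * y1 + x2 * y2 = 0)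
    (hw : z0 ^ 2 + z1 * u1 + z2 * u2 = 0)
    (hB : 2 * x0 * z0 + x1 * u1 + y1 * z1 + x2 * u2 + y2 * z2 = 1) :
    GoalB K (mk5 x0 x1 x2 y1 y2) (mk5 z0 z1 z2 u1 u2) := by
  by_cases hx0 : x0 = 0
  · exact goalB_2 hU _ _ _ _ _ _ _ _ _ _ hx0 hv hw hB
  · by_cases hy1 : y1 = 0
    · by_cases hy2 : y2 = 0
      · exfalso
        apply hx0
        have : x0 ^ 2 = 0 := by linear_combination hv - x1 * hy1 - x2 * hy2
        exact pow_eq_zero_iff (two_ne_zero) |>.mp this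
      · obtain ⟨t, ht⟩ : ∃ t : K, t * y2 = x0 := ⟨x0 / y2, div_mul_cancel₀ _ hy2⟩
        apply goalB_of_step hU 5 (by norm_num) t
        rw [actB5, actB5]
        exact goalB_2 hU _ _ _ _ _ _ _ _ _ _ (by linear_combination -ht)
          (by linear_combination hv) (by linear_combination hw) (by linear_combination hB)
    · obtain ⟨t, ht⟩ : ∃ t : K, t * y1 = x0 := ⟨x0 / y1, div_mul_cancel₀ _ hy1⟩
      apply goalB_of_step hU 6 (by norm_num) t
      rw [actB6, actB6]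
      exact goalB_2 hU _ _ _ _ _ _ _ _ _ _ (by linear_combination -ht)
        (by linear_combination hv) (by linear_combination hw) (by linear_combination hB)

theorem goalB_of_Q (hU : PkgUnitB2.{u}) (v w : Unit ⊕ (Fin 2 ⊕ Fin 2) → K)
    (hv : Cfsg.quadFormOdd 2 K v = 0) (hw : Cfsg.quadFormOdd 2 K w = 0)
    (hvw : Cfsg.quadFormOdd 2 K (v + w) = 1) : GoalB K v w := by
  simp only [Cfsg.quadFormOdd, Fin.sum_univ_two, Pi.add_apply] at hv hw hvw
  rw [mk5_eta v, mk5_eta w]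
  exact goalB_1 hU _ _ _ _ _ _ _ _ _ _ (by linear_combination hv) (by linear_combination hw)
    (by linear_combination hvw - hv - hw)

/-- [ST-B2-0]. -/
theorem pkgStB2_0_of (hU : PkgUnitB2.{u}) : PkgStB2.{u} 0 := by
  intro K _ g hg _
  have hQ : ∀ x : Unit ⊕ (Fin 2 ⊕ Fin 2) → K,
      Cfsg.quadFormOdd 2 K
        ((g : Matrix (Unit ⊕ (Fin 2 ⊕ Fin 2)) (Unit ⊕ (Fin 2 ⊕ Fin 2)) K) *ᵥ x)
        = Cfsg.quadFormOdd 2 K x := fun x => hg x x
  have hv : Cfsg.quadFormOdd 2 K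
      ((g : Matrix (Unit ⊕ (Fin 2 ⊕ Fin 2)) (Unit ⊕ (Fin 2 ⊕ Fin 2)) K) *ᵥ eB K 0) = 0 := by
    rw [hQ]
    simp [Cfsg.quadFormOdd, eB, Fin.sum_univ_two]
  have hw : Cfsg.quadFormOdd 2 K
      ((g : Matrix (Unit ⊕ (Fin 2 ⊕ Fin 2)) (Unit ⊕ (Fin 2 ⊕ Fin 2)) K) *ᵥ fB K 0) = 0 := by
    rw [hQ]
    simp [Cfsg.quadFormOdd, fB, Fin.sum_univ_two]
  have hvw : Cfsg.quadFormOdd 2 K
      ((g : Matrix (Unit ⊕ (Fin 2 ⊕ Fin 2)) (Unit ⊕ (Fin 2 ⊕ Fin 2)) K) *ᵥ eB K 0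
        + (g : Matrix (Unit ⊕ (Fin 2 ⊕ Fin 2)) (Unit ⊕ (Fin 2 ⊕ Fin 2)) K) *ᵥ fB K 0) = 1 := by
    rw [← Matrix.mulVec_add, hQ]
    simp [Cfsg.quadFormOdd, eB, fB, Fin.sum_univ_two]
  obtain ⟨ρ, hρ, a, ha, h1, h2⟩ := goalB_of_Q hU _ _ hv hw hvw
  refine ⟨ρ, hρ, ?_⟩
  intro i hi
  have hi0 : i = 0 := Fin.ext (by simpa using hi)
  subst hi0
  refine ⟨a, ha, ?_, ?_⟩
  · rw [Units.val_mul, ← Matrix.mulVec_mulVec]; exact h1
  · rw [Units.val_mul, ← Matrix.mulVec_mulVec]; exact h2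

end Cfsg.Agent.Lib.Helper79.CHO
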